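import Cfsg.Agent.Lib.H16.He2.Tab
import Cfsg.Agent.Lib.H16.CosetEnum

/-!
The check that the tables describe the action of the generators on the points of the symplectic space.
-/

set_option autoImplicit false
set_option maxRecDepth 1000000

namespace Cfsg.Agent.H16.He2

open Cfsg.Agent.H03 Cfsg.Agent.H16.CE.S1683 Cfsg.Agent.H16.CosetEnum
open Cfsg.Agent.H16.Enum (walk)

def gval : GF4 → ℕ
  | .o => 0
  | .i => 1
  | .w => 2
  | .v => 3

theorem gval_lt : ∀ x, gval x < 4 := by decide

theorem gval_inj {x y : GF4} (h : gval x = gval y) : x = y := by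
  revert x y
  decide

/-- The code of a vector. -/
def code (u : V4) : ℕ :=
  gval (u (.inl 0)) + 4 * (gval (u (.inl 1)) + 4 * (gval (u (.inr 0)) + 4 * gval (u (.inr 1))))

theorem code_inj {u v : V4} (h : code u = code v) : u = v := by
  unfold code at h
  have h0 := gval_lt (u (.inl 0))
  have h1 := gval_lt (u (.inl 1))
  have h2 := gval_lt (u (.inr 0))
  have h3 := gval_lt (u (.inr 1))
  have k0 := gval_lt (v (.inl 0))
  have k1 := gval_lt (v (.inl 1))
  have k2 := gval_lt (v (.inr 0))
  have k3 := gval_lt (v (.inr 1))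
  funext i
  apply gval_inj
  rcases i with i | i <;> fin_cases i
  · show gval (u (.inl 0)) = gval (v (.inl 0))
    omega
  · show gval (u (.inl 1)) = gval (v (.inl 1))
    omega
  · show gval (u (.inr 0)) = gval (v (.inr 0))
    omega
  · show gval (u (.inr 1)) = gval (v (.inr 1))
    omega

theorem code_eq_zero {u : V4} (h : code u = 0) : u = 0 := by
  have : code u = code 0 := h.trans (by decide)
  exact code_inj this

def dig (n : ℕ) : GF4 :=
  match n % 4 with
  | 0 => .o
  | 1 => .i
  | 2 => .w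
  | _ => .v

/-- The vector of a code. -/
def dec (c : ℕ) : V4 := mkV (dig c) (dig (c / 4)) (dig (c / 16)) (dig (c / 64))

/-- Scalar multiple. -/
def scv (c : GF4) (u : V4) : V4 := fun j => GF4.mul c (u j)

theorem scv_eq (c : GF4) (u : V4) : scv c u = c • u := rfl

/-- The matrix applied to a vector. -/
def rawA (M : M4) (x : V4) : V4 := fun i =>
  GF4.add (GF4.add (GF4.mul (M i (.inl 0)) (x (.inl 0))) (GF4.mul (M i (.inl 1)) (x (.inl 1))))
    (GF4.add (GF4.mul (M i (.inr 0)) (x (.inr 0))) (GF4.mul (M i (.inr 1)) (x (.inr 1))))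

theorem rawA_eq (M : M4) (x : V4) : M.mulVec x = rawA M x := by
  conv_lhs => rw [eq_mkV x]
  funext i
  rw [mulVec_mkV]
  rfl

/-- The action of a generator. -/
def raw (s : ℕ) (x : V4) : V4 := rawA (Am s) (bif Nat.beq s 5 then (fun i => fr (x i)) else x)

def rhoO (p : ℕ) : Bool := !(Nat.beq (rho p) 0)

/-- The vector of a point. -/
def pv (p : ℕ) : V4 := dec (rho p)

def propTo (c : ℕ) (y : V4) : Bool :=
  Nat.beq c (code y) || Nat.beq c (code (scv .w y)) || Nat.beq c (code (scv .v y))

def okPS (p s : ℕ) : Bool :=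
  Bool.and (Bool.xor (rhoO (walk tt p (sL s))) (rhoO p) |> Bool.not)
    (Bool.or (Bool.not (rhoO p)) (propTo (code (raw s (pv (walk tt p (sL s))))) (pv p)))

def okP (p : ℕ) : Bool :=
  okPS p 0 && okPS p 1 && okPS p 2 && okPS p 3 && okPS p 4 && okPS p 5 && okPS p 6

theorem okP_all : rangeAll okP 0 2058 = true := by decide +kernel

/-- The base vector. -/
def u0 : V4 := mkV .o .o .i .o

def okR (x : V4) : Bool :=
  if ent (code x) / 7 = 0 then Nat.beq (code x) (code u0)
  else Nat.blt (ent (code (raw (ent (code x) % 7) x)) / 7) (ent (code x) / 7)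

def okV (x : V4) : Bool :=
  Nat.beq (code x) 0 || (Nat.blt (mu (code x)) 2058 && rhoO (mu (code x)) && propTo (code x) (pv (mu (code x))) && okR x)

def all4 (f : GF4 → Bool) : Bool := f .o && f .i && f .w && f .v

theorem all4_spec {f : GF4 → Bool} (h : all4 f = true) (x : GF4) : f x = true := by
  simp only [all4, Bool.and_eq_true] at h
  obtain ⟨⟨⟨h0, h1⟩, h2⟩, h3⟩ := h
  cases x
  · exact h0
  · exact h1
  · exact h2
  · exact h3

theorem okV_all : all4 (fun a0 => all4 fun a1 => all4 fun a2 => all4 fun a3 => okV (mkV a0 a1 a2 a3)) = true := by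
  decide +kernel

theorem am_mem : ∀ s : Fin 7, Am s.val ∈ Matrix.symplecticGroup (Fin 2) GF4 := by
  intro s
  rw [SymplecticGroup.mem_iff]
  revert s
  decide +kernel

theorem am_c : Am 1 = Cfsg.Agent.Lead.sympTmat u0 1 := by
  decide +kernel

end Cfsg.Agent.H16.He2
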