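import Cfsg.Agent.Lib.Lead.SpGen
import Cfsg.Agent.Lib.H03.F4

/-!
The group `Sp₄(4) : 2` as a semidirect product with the field automorphism, acting semilinearly on vectors.
-/

set_option autoImplicit false
set_option linter.style.haveILetI false
set_option linter.unusedSimpArgs false

namespace Cfsg.Agent.H16.He2

open Matrix Cfsg.Agent.H03 Cfsg.Agent.Lead

abbrev I4 := Fin 2 ⊕ Fin 2
abbrev V4 := I4 → GF4
abbrev Sp4 := symplecticGroup (Fin 2) GF4
abbrev M4 := Matrix I4 I4 GF4
abbrev C2 := Multiplicative (ZMod 2)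

def fr : GF4 → GF4
  | .o => .o
  | .i => .i
  | .w => .v
  | .v => .w

theorem fr_fr : ∀ x, fr (fr x) = x := by decide

theorem fr_sq : ∀ x, (fr x) ^ 2 = x := by decide

/-- The field automorphism. -/
def frR : GF4 →+* GF4 where
  toFun := fr
  map_one' := rfl
  map_mul' := by decide
  map_zero' := rfl
  map_add' := by decide

theorem frR_apply (x : GF4) : frR x = fr x := rfl

theorem J_map : (J (Fin 2) GF4).map frR = J (Fin 2) GF4 := by
  decide +kernel

theorem map_mem (A : M4) (h : A ∈ symplecticGroup (Fin 2) GF4) : A.map frR ∈ symplecticGroup (Fin 2) GF4 := by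
  rw [SymplecticGroup.mem_iff] at h ⊢
  have := congrArg (fun M : M4 => M.map frR) h
  simp only [Matrix.map_mul, J_map] at this
  rw [← Matrix.transpose_map]
  exact this

theorem map_map_fr (A : M4) : (A.map frR).map frR = A := by
  ext i j
  exact fr_fr _

/-- The field automorphism of `Sp₄(4)`. -/
def frS : Sp4 ≃* Sp4 where
  toFun A := ⟨A.1.map frR, map_mem _ A.2⟩
  invFun A := ⟨A.1.map frR, map_mem _ A.2⟩
  left_inv _ := Subtype.ext (map_map_fr _)
  right_inv _ := Subtype.ext (map_map_fr _)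
  map_mul' _ _ := Subtype.ext (Matrix.map_mul (f := frR))

theorem frS_coe (A : Sp4) : ((frS A : Sp4) : M4) = (A : M4).map frR := rfl

theorem frS_frS (A : Sp4) : frS (frS A) = A := frS.left_inv A

/-- The nontrivial element of `C₂`. -/
def om : C2 := Multiplicative.ofAdd 1

theorem c2_cases : ∀ s : C2, s = 1 ∨ s = om := by decide

theorem om_ne : om ≠ 1 := by decide

theorem om_om : om * om = 1 := by decide

/-- The action of `C₂`. -/
noncomputable def phi : C2 →* MulAut Sp4 where
  toFun s := if s = 1 then 1 else frS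
  map_one' := by simp
  map_mul' s t := by
    rcases c2_cases s with rfl | rfl <;> rcases c2_cases t with rfl | rfl
    · simp
    · simp [om_ne]
    · simp [om_ne]
    · rw [om_om]
      simp only [om_ne, if_true, if_false]
      ext1 p
      simp [frS_frS]

theorem phi_om : phi om = frS := by
  show (if om = 1 then 1 else frS) = frS
  simp [om_ne]

theorem phi_one : phi 1 = 1 := map_one phi

/-- The group `Sp₄(4) : 2`. -/
abbrev Gam := Sp4 ⋊[phi] C2

/-! ### The semilinear action -/

/-- Apply the automorphism of the field to a vector. -/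
def tw (c : C2) (x : V4) : V4 := if c = 1 then x else fun i => fr (x i)

/-- Apply the automorphism of the field to a scalar. -/
def ts (c : C2) (k : GF4) : GF4 := if c = 1 then k else fr k

theorem tw_one (x : V4) : tw 1 x = x := if_pos rfl

theorem tw_om (x : V4) : tw om x = fun i => fr (x i) := if_neg om_ne

theorem ts_one (k : GF4) : ts 1 k = k := if_pos rfl

theorem ts_om (k : GF4) : ts om k = fr k := if_neg om_ne

theorem tw_mul (c d : C2) (x : V4) : tw (c * d) x = tw c (tw d x) := by
  rcases c2_cases c with rfl | rfl <;> rcases c2_cases d with rfl | rfl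
  · simp [tw_one]
  · simp [tw_one]
  · simp [tw_one]
  · rw [om_om, tw_one, tw_om, tw_om]
    funext i
    exact (fr_fr _).symm

theorem phi_tw (c : C2) (A : Sp4) (y : V4) :
    ((phi c A : Sp4) : M4) *ᵥ tw c y = tw c ((A : M4) *ᵥ y) := by
  rcases c2_cases c with rfl | rfl
  · rw [phi_one, tw_one, tw_one]
    rfl
  · rw [phi_om, tw_om, tw_om, frS_coe]
    funext i
    exact (RingHom.map_mulVec frR (A : M4) y i).symm

/-- The action of `Sp₄(4) : 2` on vectors. -/
def sact (g : Gam) (x : V4) : V4 := (g.left : M4) *ᵥ tw g.right x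

theorem sact_mul (g h : Gam) (x : V4) : sact (g * h) x = sact g (sact h x) := by
  unfold sact
  rw [SemidirectProduct.mul_left, SemidirectProduct.mul_right, tw_mul, Submonoid.coe_mul, ← Matrix.mulVec_mulVec,
    phi_tw]

theorem sact_one (x : V4) : sact 1 x = x := by
  unfold sact
  rw [SemidirectProduct.one_left, SemidirectProduct.one_right, tw_one, Submonoid.coe_one, Matrix.one_mulVec]

theorem sact_inv_act (g : Gam) (x : V4) : sact g⁻¹ (sact g x) = x := by
  rw [← sact_mul, inv_mul_cancel, sact_one]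

theorem sact_act_inv (g : Gam) (x : V4) : sact g (sact g⁻¹ x) = x := by
  rw [← sact_mul, mul_inv_cancel, sact_one]

theorem tw_smul (c : C2) (k : GF4) (x : V4) : tw c (k • x) = ts c k • tw c x := by
  rcases c2_cases c with rfl | rfl
  · rw [tw_one, tw_one, ts_one]
  · rw [tw_om, tw_om, ts_om]
    funext i
    exact frR.map_mul k (x i)

theorem sact_smul (g : Gam) (k : GF4) (x : V4) : sact g (k • x) = ts g.right k • sact g x := by
  unfold sact
  rw [tw_smul, Matrix.mulVec_smul]

theorem ts_ne (c : C2) {k : GF4} (h : k ≠ 0) : ts c k ≠ 0 := by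
  rcases c2_cases c with rfl | rfl
  · rwa [ts_one]
  · rw [ts_om]
    revert k
    decide

theorem sact_ne (g : Gam) {x : V4} (h : x ≠ 0) : sact g x ≠ 0 := by
  intro h0
  apply h
  have := sact_inv_act g x
  rw [h0] at this
  rw [← this]
  unfold sact
  have e : tw g⁻¹.right (0 : V4) = 0 := by
    rcases c2_cases g⁻¹.right with e | e <;> rw [e]
    · rw [tw_one]
    · rw [tw_om]
      funext i
      rfl
  rw [e, Matrix.mulVec_zero]

/-- The vector with given coordinates. -/
def mkV (a0 a1 a2 a3 : GF4) : V4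
  | .inl 0 => a0
  | .inl 1 => a1
  | .inr 0 => a2
  | .inr 1 => a3

/-- The matrix with given rows. -/
def mk4 (a00 a01 a02 a03 a10 a11 a12 a13 a20 a21 a22 a23 a30 a31 a32 a33 : GF4) : M4 := fun i j =>
  mkV (mkV a00 a01 a02 a03 j) (mkV a10 a11 a12 a13 j) (mkV a20 a21 a22 a23 j) (mkV a30 a31 a32 a33 j) i

theorem eq_mkV (u : V4) : u = mkV (u (.inl 0)) (u (.inl 1)) (u (.inr 0)) (u (.inr 1)) := by
  funext i
  rcases i with i | i <;> fin_cases i <;> rfl

theorem mulVec_mkV (A : M4) (a0 a1 a2 a3 : GF4) (i : I4) :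
    (A *ᵥ mkV a0 a1 a2 a3) i = A i (.inl 0) * a0 + A i (.inl 1) * a1 + (A i (.inr 0) * a2 + A i (.inr 1) * a3) := by
  simp [Matrix.mulVec, dotProduct, Fintype.sum_sum_type, Fin.sum_univ_two, mkV]

theorem tw_mkV (c : C2) (a0 a1 a2 a3 : GF4) : tw c (mkV a0 a1 a2 a3) = mkV (ts c a0) (ts c a1) (ts c a2) (ts c a3) := by
  rcases c2_cases c with rfl | rfl
  · simp [tw_one, ts_one]
  · rw [tw_om, ts_om, ts_om, ts_om, ts_om]
    funext i
    rcases i with i | i <;> fin_cases i <;> rfl

theorem ts_zero (c : C2) : ts c 0 = 0 := by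
  rcases c2_cases c with rfl | rfl
  · rw [ts_one]
  · rw [ts_om]
    rfl

theorem ts_one' (c : C2) : ts c 1 = 1 := by
  rcases c2_cases c with rfl | rfl
  · rw [ts_one]
  · rw [ts_om]
    rfl

theorem sq_one : ∀ d : GF4, d * d = 1 → d = 1 := by decide

/-- An element fixing all points of the projective space is trivial. -/
theorem eq_one_of_fix (g : Gam) (h : ∀ x : V4, x ≠ 0 → ∃ c : GF4, sact g x = c • x) : g = 1 := by
  obtain ⟨⟨A, hA⟩, c⟩ := g
  have key : ∀ a0 a1 a2 a3 : GF4, mkV a0 a1 a2 a3 ≠ 0 → ∃ k : GF4, ∀ i : I4,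
      A i (.inl 0) * ts c a0 + A i (.inl 1) * ts c a1 + (A i (.inr 0) * ts c a2 + A i (.inr 1) * ts c a3)
        = k * mkV a0 a1 a2 a3 i := by
    intro a0 a1 a2 a3 hne
    obtain ⟨k, hk⟩ := h _ hne
    refine ⟨k, fun i => ?_⟩
    have := congrFun hk i
    simp only [sact, tw_mkV, mulVec_mkV] at this
    exact this
  have n1 : mkV 1 0 0 0 ≠ 0 := fun e => by simpa [mkV] using congrFun e (.inl 0)
  have n2 : mkV 0 1 0 0 ≠ 0 := fun e => by simpa [mkV] using congrFun e (.inl 1)
  have n3 : mkV 0 0 1 0 ≠ 0 := fun e => by simpa [mkV] using congrFun e (.inr 0)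
  have n4 : mkV 0 0 0 1 ≠ 0 := fun e => by simpa [mkV] using congrFun e (.inr 1)
  have n12 : mkV 1 1 0 0 ≠ 0 := fun e => by simpa [mkV] using congrFun e (.inl 0)
  have n13 : mkV 1 0 1 0 ≠ 0 := fun e => by simpa [mkV] using congrFun e (.inl 0)
  have n14 : mkV 1 0 0 1 ≠ 0 := fun e => by simpa [mkV] using congrFun e (.inl 0)
  obtain ⟨k1, h1⟩ := key _ _ _ _ n1
  obtain ⟨k2, h2⟩ := key _ _ _ _ n2
  obtain ⟨k3, h3⟩ := key _ _ _ _ n3
  obtain ⟨k4, h4⟩ := key _ _ _ _ n4
  obtain ⟨k12, h12⟩ := key _ _ _ _ n12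
  obtain ⟨k13, h13⟩ := key _ _ _ _ n13
  obtain ⟨k14, h14⟩ := key _ _ _ _ n14
  simp only [ts_zero, ts_one', mul_zero, mul_one, add_zero, zero_add] at h1 h2 h3 h4 h12 h13 h14
  have col : ∀ i, A i (.inl 0) = k1 * mkV 1 0 0 0 i := h1
  have e1 : ∀ (a0 a1 a2 a3 : GF4), mkV a0 a1 a2 a3 (.inl 0) = a0 := fun _ _ _ _ => rfl
  have e2 : ∀ (a0 a1 a2 a3 : GF4), mkV a0 a1 a2 a3 (.inl 1) = a1 := fun _ _ _ _ => rfl
  have e3 : ∀ (a0 a1 a2 a3 : GF4), mkV a0 a1 a2 a3 (.inr 0) = a2 := fun _ _ _ _ => rfl
  have e4 : ∀ (a0 a1 a2 a3 : GF4), mkV a0 a1 a2 a3 (.inr 1) = a3 := fun _ _ _ _ => rfl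
  have h112 := h12 (.inl 0)
  have h212 := h12 (.inl 1)
  have h113 := h13 (.inl 0)
  have h313 := h13 (.inr 0)
  have h114 := h14 (.inl 0)
  have h414 := h14 (.inr 1)
  simp only [h1, h2, h3, h4, e1, e2, e3, e4, mul_zero, mul_one, add_zero, zero_add] at h112 h212 h113 h313 h114 h414
  have k2e : k2 = k1 := (h212.trans h112.symm)
  have k3e : k3 = k1 := (h313.trans h113.symm)
  have k4e : k4 = k1 := (h414.trans h114.symm)
  subst k2e k3e k4e
  have hAe : A = k4 • (1 : M4) := by
    ext i j
    rcases j with j | j <;> fin_cases j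
    · have := h1 i
      simp only [Fin.isValue, Fin.zero_eta] at this ⊢
      rw [this]
      rcases i with i | i <;> fin_cases i <;> simp [mkV, Matrix.one_apply]
    · have := h2 i
      simp only [Fin.isValue, Fin.mk_one] at this ⊢
      rw [this]
      rcases i with i | i <;> fin_cases i <;> simp [mkV, Matrix.one_apply]
    · have := h3 i
      simp only [Fin.isValue, Fin.zero_eta] at this ⊢
      rw [this]
      rcases i with i | i <;> fin_cases i <;> simp [mkV, Matrix.one_apply]
    · have := h4 i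
      simp only [Fin.isValue, Fin.mk_one] at this ⊢
      rw [this]
      rcases i with i | i <;> fin_cases i <;> simp [mkV, Matrix.one_apply]
  have hk : k4 * k4 = 1 := by
    have h5 := SymplecticGroup.mem_iff.1 hA
    rw [hAe] at h5
    simp only [Matrix.transpose_smul, Matrix.transpose_one, Matrix.smul_mul, Matrix.mul_smul, Matrix.one_mul,
      Matrix.mul_one, smul_smul] at h5
    have h6 := congrFun (congrFun h5 (.inr 0)) (.inl 0)
    simpa [J, Matrix.one_apply] using h6
  have hk1 := sq_one _ hk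
  subst hk1
  have hA1 : A = 1 := by rw [hAe, one_smul]
  subst hA1
  have hc : c = 1 := by
    rcases c2_cases c with e | e
    · exact e
    · exfalso
      subst e
      have hn : mkV .w 1 0 0 ≠ 0 := fun e => by
        have := congrFun e (.inl 1)
        simp [mkV] at this
      obtain ⟨k, hk⟩ := key _ _ _ _ hn
      have h8 := hk (.inl 0)
      have h9 := hk (.inl 1)
      rw [ts_zero, ts_one'] at h8 h9
      simp [Matrix.one_apply, mkV, ts_om] at h8 h9
      rw [← h9] at h8
      revert h8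
      decide
  subst hc
  rfl

/-! ### Conjugating transvections -/

theorem fr_sympForm (x y : V4) : fr (sympForm x y) = sympForm (fun i => fr (x i)) (fun i => fr (y i)) := by
  rw [sympForm_apply, sympForm_apply, ← frR_apply, map_sum]
  refine Finset.sum_congr rfl fun i _ => ?_
  rw [map_sub, map_mul, map_mul]
  rfl

theorem frS_sympT (u : V4) : frS (sympT u 1) = sympT (fun i => fr (u i)) 1 := by
  apply Subtype.ext
  apply mat_ext_mulVec
  intro x
  have hx : x = fun i => frR ((fun i => fr (x i)) i) := by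
    funext i
    exact (fr_fr _).symm
  rw [frS_coe, hx]
  funext i
  have h1 := RingHom.map_mulVec frR ((sympT u 1 : Sp4) : M4) (fun i => fr (x i)) i
  have h2 : (frR ∘ fun i => fr (x i)) = fun i => frR ((fun i => fr (x i)) i) := rfl
  rw [h2] at h1
  rw [← h1, sympT_coe, sympT_coe, sympTmat_mulVec, sympTmat_mulVec]
  simp only [Pi.add_apply, Pi.smul_apply, smul_eq_mul, one_mul, map_add, map_mul, frR_apply, fr_fr]
  congr 2
  rw [fr_sympForm]
  simp only [fr_fr]

open SemidirectProduct in
theorem conj_T (g : Gam) (u : V4) :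
    g * inl (sympT u 1) * g⁻¹ = inl (sympT (sact g u) 1) := by
  have e : g = inl g.left * inr g.right := (inl_left_mul_inr_right g).symm
  have h1 : inr g.right * inl (sympT u 1) * (inr g.right : Gam)⁻¹ = inl (phi g.right (sympT u 1)) := by
    rw [inl_aut, map_inv]
  have h2 : phi g.right (sympT u 1) = sympT (tw g.right u) 1 := by
    rcases c2_cases g.right with e | e <;> rw [e]
    · rw [phi_one, tw_one]
      rfl
    · rw [phi_om, tw_om, frS_sympT]
  have h3 : sact g u = (g.left : M4) *ᵥ tw g.right u := rfl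
  calc g * inl (sympT u 1) * g⁻¹
      = inl g.left * (inr g.right * inl (sympT u 1) * (inr g.right : Gam)⁻¹) * (inl g.left)⁻¹ := by
        conv_lhs => rw [e]
        group
    _ = inl (g.left * sympT (tw g.right u) 1 * (g.left)⁻¹) := by
        rw [h1, h2, map_mul, map_mul, map_inv]
    _ = inl (sympT (sact g u) 1) := by
        rw [conj_sympT, h3]

end Cfsg.Agent.H16.He2
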