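import Cfsg.Agent.Lib.H16.He2.Check
import Cfsg.Agent.Lib.H16.SDInj
import Cfsg.Agent.S1683
import Cfsg.Prelude.Def_Sporadic

/-!
The subgroup `H` of index `2058` of the presented Held group is `Sp₄(4) : 2`.
The generators of `H` act on the orbit of length `425` as semilinear maps do on the points of the symplectic
space.
-/

set_option autoImplicit false
set_option maxRecDepth 100000
set_option linter.style.haveILetI false
set_option linter.unusedSimpArgs false

namespace Cfsg.Agent.H16.He2

open Matrix Cfsg.Agent.H03 Cfsg.Agent.Lead Cfsg.Agent.H16.CE.S1683 Cfsg.Agent.H16.CosetEnum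
open Cfsg.Agent.H16.Enum (walk)

local notation "RR" => Cfsg.Agent.S1683.R
local notation "SS" => Cfsg.Agent.S1683.S

theorem beq_eq {a b : ℕ} (h : Nat.beq a b = true) : a = b := Nat.eq_of_beq_eq_true h

theorem okV_vec (u : V4) : okV u = true := by
  rw [eq_mkV u]
  exact all4_spec (all4_spec (all4_spec (all4_spec okV_all _) _) _) _

theorem propTo_spec {c : ℕ} {y x : V4} (hc : c = code x) (h : propTo c y = true) : ∃ k : GF4, k ≠ 0 ∧ x = k • y := by
  subst hc
  simp only [propTo, Bool.or_eq_true] at h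
  rcases h with (h | h) | h
  · exact ⟨1, one_ne_zero, by rw [one_smul]; exact code_inj (beq_eq h)⟩
  · exact ⟨.w, by decide, code_inj (beq_eq h)⟩
  · exact ⟨.v, by decide, code_inj (beq_eq h)⟩

/-- What the tables say about a nonzero vector. -/
structure OkV (u : V4) : Prop where
  lt : mu (code u) < 2058
  o : rhoO (mu (code u)) = true
  l : ∃ k : GF4, k ≠ 0 ∧ u = k • pv (mu (code u))
  r : (ent (code u) / 7 = 0 ∧ u = u0) ∨
    (ent (code (raw (ent (code u) % 7) u)) / 7 < ent (code u) / 7 ∧ ent (code u) / 7 ≠ 0)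

theorem okV_of (u : V4) (hne : u ≠ 0) : OkV u := by
  have h := okV_vec u
  rw [okV, Bool.or_eq_true] at h
  rcases h with h | h
  · exact absurd (code_eq_zero (beq_eq h)) hne
  simp only [Bool.and_eq_true] at h
  obtain ⟨⟨⟨h1, h2⟩, h3⟩, h4⟩ := h
  refine ⟨Nat.le_of_ble_eq_true h1, h2, propTo_spec rfl h3, ?_⟩
  unfold okR at h4
  by_cases h0 : ent (code u) / 7 = 0
  · left
    rw [if_pos h0] at h4
    exact ⟨h0, code_inj (beq_eq h4)⟩
  · right
    rw [if_neg h0] at h4
    exact ⟨Nat.le_of_ble_eq_true h4, h0⟩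

theorem okP_at (p : ℕ) (hp : p < 2058) : okP p = true := range_step range_start okP_all rfl p hp

theorem okPS_at (p : ℕ) (hp : p < 2058) (s : ℕ) (hs : s < 7) : okPS p s = true := by
  have h := okP_at p hp
  simp only [okP, Bool.and_eq_true] at h
  obtain ⟨⟨⟨⟨⟨⟨h0, h1⟩, h2⟩, h3⟩, h4⟩, h5⟩, h6⟩ := h
  interval_cases s <;> assumption

theorem step1 (p : ℕ) (hp : p < 2058) (s : ℕ) (hs : s < 7) : rhoO p = rhoO (walk tt p (sL s)) := by
  have h := okPS_at p hp s hs
  simp only [okPS, Bool.and_eq_true] at h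
  have h1 := h.1
  revert h1
  cases rhoO (walk tt p (sL s)) <;> cases rhoO p <;> decide

theorem step2 (p : ℕ) (hp : p < 2058) (s : ℕ) (hs : s < 7) (hO : rhoO p = true) :
    ∃ k : GF4, k ≠ 0 ∧ raw s (pv (walk tt p (sL s))) = k • pv p := by
  have h := okPS_at p hp s hs
  simp only [okPS, Bool.and_eq_true] at h
  have h2 := h.2
  rw [hO] at h2
  exact propTo_spec rfl (by simpa using h2)

theorem fr_ne : ∀ c : GF4, c ≠ 0 → fr c ≠ 0 := by decide

/-- The elements of `Sp₄(4)` of the generators. -/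
def AS (s : Fin 7) : Sp4 := ⟨Am s.val, am_mem s⟩

/-- The field part of the generators. -/
def tS (s : Fin 7) : C2 := if s.val = 5 then om else 1

/-- The generators in `Sp₄(4) : 2`. -/
noncomputable def gS (s : Fin 7) : Gam := ⟨AS s, tS s⟩

theorem sact_gS (s : Fin 7) (x : V4) : sact (gS s) x = raw s.val x := by
  unfold sact raw
  rw [← rawA_eq]
  show (Am s.val).mulVec (tw (tS s) x) = _
  congr 1
  unfold tS
  by_cases h : s.val = 5
  · rw [if_pos h, tw_om, h]
    rfl
  · rw [if_neg h, tw_one]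
    have : Nat.beq s.val 5 = false := by
      rw [← Bool.not_eq_true]
      intro h'
      exact h (beq_eq h')
    rw [this]
    rfl

/-- The map of the words in the generators. -/
noncomputable def be : FreeGroup (Fin 7) →* Gam := FreeGroup.lift gS

theorem be_of (s : Fin 7) : be (FreeGroup.of s) = gS s := by
  simp [be]

/-! ### Surjectivity -/

noncomputable abbrev RS : Subgroup Gam := be.range

theorem gS_mem (s : Fin 7) : gS s ∈ RS := ⟨FreeGroup.of s, be_of s⟩

open SemidirectProduct in
theorem gS_c : gS 1 = inl (sympT u0 1) := by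
  apply SemidirectProduct.ext
  · exact Subtype.ext am_c
  · rfl

open SemidirectProduct in
theorem T_mem_aux : ∀ (n : ℕ) (u : V4), u ≠ 0 → ent (code u) / 7 = n → (inl (sympT u 1) : Gam) ∈ RS := by
  intro n
  induction n using Nat.strong_induction_on with
  | _ n ih =>
    intro u hne hn
    rcases (okV_of u hne).r with ⟨-, h⟩ | ⟨h1, -⟩
    · rw [h, ← gS_c]
      exact gS_mem _
    · have hlt : ent (code u) % 7 < 7 := Nat.mod_lt _ (by norm_num)
      set s : Fin 7 := ⟨ent (code u) % 7, hlt⟩ with hs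
      have e1 : sact (gS s) u = raw (ent (code u) % 7) u := sact_gS s u
      have h2 : (inl (sympT (sact (gS s) u) 1) : Gam) ∈ RS := by
        refine ih (ent (code (sact (gS s) u)) / 7) ?_ _ (sact_ne _ hne) rfl
        rw [e1, ← hn]
        exact h1
      have h3 := conj_T (gS s)⁻¹ (sact (gS s) u)
      rw [sact_inv_act, inv_inv] at h3
      rw [← h3]
      exact RS.mul_mem (RS.mul_mem (RS.inv_mem (gS_mem s)) h2) (gS_mem s)

open SemidirectProduct in
theorem T_mem (u : V4) (hu : u ≠ 0) : (inl (sympT u 1) : Gam) ∈ RS := T_mem_aux _ u hu rfl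

open SemidirectProduct in
theorem inl_mem (A : Sp4) : (inl A : Gam) ∈ RS := by
  have hP : RS.comap (inl : Sp4 →* Gam) = ⊤ := by
    apply sp_induction
    intro u c
    rw [Subgroup.mem_comap]
    by_cases hu : u = 0
    · subst hu
      rw [sympT_zero_vec, map_one]
      exact RS.one_mem
    by_cases hc : c = 0
    · subst hc
      rw [sympT_zero, map_one]
      exact RS.one_mem
    have e : sympT (fr c • u) 1 = sympT u c := by
      rw [sympT_smul, one_mul, fr_sq]
    rw [← e]
    apply T_mem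
    exact smul_ne_zero (fr_ne c hc) hu
  have : A ∈ RS.comap (inl : Sp4 →* Gam) := by rw [hP]; trivial
  exact this

open SemidirectProduct in
theorem be_surj : Function.Surjective be := by
  intro x
  have hx : x ∈ RS := by
    rw [← inl_left_mul_inr_right x]
    refine RS.mul_mem (inl_mem _) ?_
    rcases c2_cases x.right with e | e
    · rw [e, map_one]
      exact RS.one_mem
    · rw [e]
      have h1 : (inr om : Gam) = (inl (AS 5))⁻¹ * gS 5 := by
        apply SemidirectProduct.ext
        · simp [gS, tS]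
        · simp [gS, tS]
      rw [h1]
      exact RS.mul_mem (RS.inv_mem (inl_mem _)) (gS_mem _)
  exact hx

/-! ### The subgroup -/

abbrev HH : Subgroup (PresentedGroup RR) := (Subgroup.closure SS).map (PresentedGroup.mk RR)

/-- The generators of `H` as words. -/
def rep (s : Fin 7) : FreeGroup Cfsg.Spor.He.Gen := Cfsg.Agent.S1683.SL.getD s.val 1

theorem rep_mem (s : Fin 7) : rep s ∈ SS := by
  fin_cases s <;> simp [rep, Cfsg.Agent.S1683.SL, Cfsg.Agent.S1683.S]

theorem letters_rep (s : Fin 7) : letters Cfsg.Agent.S1683.code (rep s) = sL s.val := by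
  unfold sL
  rw [Cfsg.Agent.S1683.hhw]
  fin_cases s <;> rfl

/-- The generators of `H`. -/
noncomputable def sgen (s : Fin 7) : HH :=
  ⟨PresentedGroup.mk RR (rep s), Subgroup.mem_map_of_mem _ (Subgroup.subset_closure (rep_mem s))⟩

/-- The words in the generators. -/
noncomputable def al : FreeGroup (Fin 7) →* HH := FreeGroup.lift sgen

theorem al_of (s : Fin 7) : al (FreeGroup.of s) = sgen s := by
  simp [al]

theorem al_surj : Function.Surjective al := by
  rintro ⟨_, y, hy, rfl⟩
  have key : ∀ y ∈ Subgroup.closure SS, ∃ r, ((al r : HH) : PresentedGroup RR) = PresentedGroup.mk RR y := by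
    intro y hy
    induction hy using Subgroup.closure_induction with
    | mem s hs =>
      have : ∃ x, s = rep x := by
        simp only [Cfsg.Agent.S1683.S, Set.mem_insert_iff, Set.mem_singleton_iff] at hs
        rcases hs with rfl | rfl | rfl | rfl | rfl | rfl | rfl
        · exact ⟨0, rfl⟩
        · exact ⟨1, rfl⟩
        · exact ⟨2, rfl⟩
        · exact ⟨3, rfl⟩
        · exact ⟨4, rfl⟩
        · exact ⟨5, rfl⟩
        · exact ⟨6, rfl⟩
      obtain ⟨x, rfl⟩ := this
      exact ⟨FreeGroup.of x, by rw [al_of]; rfl⟩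
    | one => exact ⟨1, by rw [map_one, map_one]; rfl⟩
    | mul a b _ _ ha hb =>
      obtain ⟨r, hr⟩ := ha
      obtain ⟨r', hr'⟩ := hb
      exact ⟨r * r', by rw [map_mul, map_mul, Subgroup.coe_mul, hr, hr']⟩
    | inv a _ ha =>
      obtain ⟨r, hr⟩ := ha
      exact ⟨r⁻¹, by rw [map_inv, map_inv, Subgroup.coe_inv, hr]⟩
  obtain ⟨r, hr⟩ := key y hy
  exact ⟨r, Subtype.ext hr⟩

theorem card_Gam : Nat.card Gam = 1958400 := by
  have h1 : Nat.card Gam = Nat.card Sp4 * Nat.card C2 := SemidirectProduct.card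
  have h2 : Nat.card Sp4 = 979200 := by
    have := card_Sp (F := GF4) (q := 4) (by decide) 2
    simp only [Finset.prod_range_succ, Finset.prod_range_zero] at this
    norm_num at this
    exact this
  have h3 : Nat.card C2 = 2 := by
    simp [Nat.card_eq_fintype_card, ZMod.card]
  rw [h1, h2, h3]

section Act

variable (ac : PresentedGroup RR →* (Equiv.Perm (Fin 2058))ᵐᵒᵖ)
  (hac : ∀ (r : FreeGroup Cfsg.Spor.He.Gen) (i : Fin 2058),
    (ract ac (PresentedGroup.mk RR r) i : ℕ) = walk tt i (letters Cfsg.Agent.S1683.code r))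

include hac

theorem ract_sgen (s : Fin 7) (i : Fin 2058) : (ract ac (sgen s : HH) i : ℕ) = walk tt i (sL s.val) := by
  have := hac (rep s) i
  rw [letters_rep] at this
  exact this

theorem key (w : FreeGroup (Fin 7)) : ∀ p : Fin 2058,
    rhoO p = rhoO (ract ac ((al w : HH) : PresentedGroup RR) p) ∧
      (rhoO p = true → ∃ k : GF4, k ≠ 0 ∧ sact (be w) (pv (ract ac ((al w : HH) : PresentedGroup RR) p)) = k • pv p) := by
  induction w using FreeGroup.induction_on with
  | C1 =>
    intro p
    rw [map_one, map_one, Subgroup.coe_one, ract_one]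
    exact ⟨rfl, fun _ => ⟨1, one_ne_zero, by rw [one_smul, sact_one]⟩⟩
  | of s =>
    intro p
    show rhoO p = rhoO (ract ac ((al (FreeGroup.of s) : HH) : PresentedGroup RR) p) ∧
      (rhoO p = true → ∃ k : GF4, k ≠ 0 ∧ sact (be (FreeGroup.of s)) (pv (ract ac ((al (FreeGroup.of s) : HH) : PresentedGroup RR) p)) = k • pv p)
    rw [al_of, be_of, ract_sgen ac hac, sact_gS]
    exact ⟨step1 p p.2 s s.2, step2 p p.2 s s.2⟩
  | inv_of s ih =>
    intro p
    rw [map_inv, map_inv, Subgroup.coe_inv]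
    set q := ract ac ((al (FreeGroup.of s) : HH) : PresentedGroup RR)⁻¹ p with hq
    have e : ract ac ((al (FreeGroup.of s) : HH) : PresentedGroup RR) q = p := ract_inv' _ _
    obtain ⟨h1, h2⟩ := ih q
    rw [e] at h1 h2
    refine ⟨h1.symm, fun hO => ?_⟩
    obtain ⟨k, hk, h3⟩ := h2 (h1.trans hO)
    have h4 := congrArg (sact (be (FreeGroup.of s))⁻¹) h3
    rw [sact_inv_act, sact_smul] at h4
    have hts := ts_ne (be (FreeGroup.of s))⁻¹.right hk
    refine ⟨(ts (be (FreeGroup.of s))⁻¹.right k)⁻¹, inv_ne_zero hts, ?_⟩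
    rw [h4, smul_smul, inv_mul_cancel₀ hts, one_smul]
  | mul x y hx hy =>
    intro p
    rw [map_mul, map_mul, Subgroup.coe_mul, ract_mul]
    obtain ⟨h1, h2⟩ := hx p
    obtain ⟨h3, h4⟩ := hy (ract ac ((al x : HH) : PresentedGroup RR) p)
    refine ⟨h1.trans h3, fun hO => ?_⟩
    obtain ⟨k, hk, h5⟩ := h2 hO
    obtain ⟨k', hk', h6⟩ := h4 (h1.symm.trans hO)
    refine ⟨ts (be x).right k' * k, mul_ne_zero (ts_ne _ hk') hk, ?_⟩
    rw [sact_mul, h6, sact_smul, h5, smul_smul]

theorem ker_le : al.ker ≤ be.ker := by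
  intro w hw
  rw [MonoidHom.mem_ker] at hw ⊢
  apply eq_one_of_fix
  intro x hx
  have ho := okV_of x hx
  have h1 := (key ac hac w ⟨_, ho.lt⟩).2 ho.o
  rw [hw, Subgroup.coe_one, ract_one] at h1
  obtain ⟨k, hk, h2⟩ := h1
  obtain ⟨k', hk', h3⟩ := ho.l
  refine ⟨ts (be w).right k' * k * k'⁻¹, ?_⟩
  have h4 : sact (be w) (pv (mu (code x))) = k • pv (mu (code x)) := h2
  conv_lhs => rw [h3, sact_smul, h4, smul_smul]
  conv_rhs => rw [h3, smul_smul, mul_assoc, inv_mul_cancel₀ hk', mul_one]

/-- The map to `Sp₄(4) : 2`. -/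
noncomputable def psi : HH →* Gam :=
  (MonoidHom.liftOfSurjective al al_surj) ⟨be, ker_le ac hac⟩

theorem psi_al (w : FreeGroup (Fin 7)) : psi ac hac (al w) = be w :=
  MonoidHom.liftOfRightInverse_comp_apply _ _ _ _ _

theorem psi_surj : Function.Surjective (psi ac hac) := by
  intro x
  obtain ⟨w, rfl⟩ := be_surj x
  exact ⟨al w, psi_al ac hac w⟩

theorem psi_bij (hK : Cfsg.IsHe Cfsg.Spor.He) : Function.Bijective (psi ac hac) := by
  have h1 : Nat.card HH * HH.index = Nat.card (PresentedGroup RR) := Subgroup.card_mul_index HH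
  have h2 : HH.index = 2058 := Cfsg.Agent.S1683.result.1
  have h3 : Nat.card (PresentedGroup RR) = 4030387200 := hK.2
  rw [h2, h3] at h1
  have h4 : Nat.card HH = 1958400 := by omega
  haveI : Finite HH := Nat.finite_of_card_ne_zero (by rw [h4]; norm_num)
  haveI : Finite Gam := Nat.finite_of_card_ne_zero (by rw [card_Gam]; norm_num)
  exact (Nat.bijective_iff_surjective_and_card _).2 ⟨psi_surj ac hac, by rw [h4, card_Gam]⟩

end Act

/-- The main theorem. -/
theorem result_main (hK : Cfsg.IsHe Cfsg.Spor.He) :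
    ∃ N : Subgroup HH, N.Normal ∧ N.index = 2 ∧ Nonempty (N ≃* Sp4) := by
  obtain ⟨ac, -, hac⟩ := Cfsg.Agent.S1683.main
  refine Cfsg.Agent.H16.SDInj.sd_conclusion (phi := phi) (S := Sp4) (C := C2) ?_
    (MulEquiv.ofBijective (psi ac hac) (psi_bij ac hac hK)).symm
  simp [Nat.card_eq_fintype_card, ZMod.card]

end Cfsg.Agent.H16.He2
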